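import Cfsg.Agent.PQ.Th.Grp
import Cfsg.Agent.H794.GUT.Cols
import Cfsg.Agent.H794.GUT.Orb

/-!
# PQ, theta = fermions: the places as classes of eigenvalues (helper56)

* `Plc F K M` : a root `lam i` in an algebraic closure `K` for every place;
* `Plc.ty x` : the type of an automorphism; `Pu`, `Plc.Pure`, `Plc.Free`; `Spl` : orthogonal splitting of a pair;
* `Lcl lam e t` : the local classification for symplectic spaces; boxes LU, LG;
* `KF` : factorisation of the kernel; `Geo` : the geometric description of type and rest; boxes GL, AR.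
-/

set_option autoImplicit false
set_option linter.unusedSectionVars false

namespace Cfsg.Agent.PQ.Th

open Module Polynomial Cfsg Cfsg.Agent.H615.GU Cfsg.Agent.PQ.Mk Cfsg.Agent.H794.GUT
open scoped ComplexConjugate

attribute [local instance] GT.grp GT.fin Pm.fI Pm.dI

section

variable {F : Type} [Field F] [Finite F] {K : Type} [Field K] [Algebra F K]

/-- all eigenvalues are conjugate to `lam` or its inverse -/
def Pu (lam : Kˣ) {V : Type} [AddCommGroup V] [Module F V] [FiniteDimensional F V] (x : End F V) : Prop :=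
  ∀ φ : F[X], col x φ ≠ 0 → φ = mp F lam ∨ φ = mp F lam⁻¹

/-- the pair `(Φ, g)` is the orthogonal sum of `(Φ₁, g₁)` and `(Φ₂, g₂)` -/
def Spl {o : Bool} {V V₁ V₂ : Type} [AddCommGroup V] [Module F V] [AddCommGroup V₁] [Module F V₁] [AddCommGroup V₂]
    [Module F V₂] (Φ : Fm o F V) (g : Φ.G) (Φ₁ : Fm o F V₁) (g₁ : Φ₁.G) (Φ₂ : Fm o F V₂) (g₂ : Φ₂.G) : Prop :=
  ∃ e : V ≃ₗ[F] V₁ × V₂, (∀ u v, Φ.B u v = Φ₁.B (e u).1 (e v).1 + Φ₂.B (e u).2 (e v).2) ∧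
    (∀ v, Φ.Q v = Φ₁.Q (e v).1 + Φ₂.Q (e v).2) ∧ ∀ v, e (g.1 v) = (g₁.1 (e v).1, g₂.1 (e v).2)

variable (F) in
/-- **the local classification** for the class of `lam` (`o = false` : symplectic): dimension `2 e`, parameter `t` -/
structure Lcl (o : Bool) (lam : Kˣ) (e : ℕ) (t : ℤ) : Prop where
  iso : ∀ {V V' : Type} [AddCommGroup V] [Module F V] [AddCommGroup V'] [Module F V'] [FiniteDimensional F V]
    [FiniteDimensional F V'] (Φ : Fm o F V) (Φ' : Fm o F V') (g : Φ.G) (g' : Φ'.G), Pu lam (g.1 : End F V) →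
    Pu lam (g'.1 : End F V') → col (g.1 : End F V) (mp F lam) = col (g'.1 : End F V') (mp F lam) →
    ∃ i : V ≃ₗ[F] V', (∀ u v, Φ'.B (i u) (i v) = Φ.B u v) ∧ (∀ v, Φ'.Q (i v) = Φ.Q v) ∧ ∀ v, i (g.1 v) = g'.1 (i v)
  card : ∀ {V : Type} [AddCommGroup V] [Module F V] [FiniteDimensional F V] (Φ : Fm o F V) (g : Φ.G),
    Pu lam (g.1 : End F V) → (Nat.card (Subgroup.centralizer ({g} : Set Φ.G)) : ℂ) =
      (t.sign : ℂ) ^ (col (g.1 : End F V) (mp F lam)).size * ev (t : ℂ) (ap (col (g.1 : End F V) (mp F lam)))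
  dim : ∀ {V : Type} [AddCommGroup V] [Module F V] [FiniteDimensional F V] (Φ : Fm o F V) (g : Φ.G),
    Pu lam (g.1 : End F V) → finrank F V = 2 * e * (col (g.1 : End F V) (mp F lam)).size
  ex : ∀ c : Col, ∃ (n : ℕ) (Φ : Fm o F (Fin n → F)) (g : Φ.G), Pu lam (g.1 : End F (Fin n → F)) ∧
    col (g.1 : End F (Fin n → F)) (mp F lam) = c
  /-- similitudes which commute with the element -/
  sim : ∀ {V : Type} [AddCommGroup V] [Module F V] [FiniteDimensional F V] (Φ : Fm o F V) (g : Φ.G),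
    Pu lam (g.1 : End F V) → ∀ c : F, c ≠ 0 → ∃ j : V ≃ₗ[F] V, (∀ u v, Φ.B (j u) (j v) = c * Φ.B u v) ∧
      (∀ v, Φ.Q (j v) = c * Φ.Q v) ∧ ∀ v, j (g.1 v) = g.1 (j v)

end

/-- box LU : self dual classes, symplectic -/
def BoxLU : Prop :=
  ∀ (F : Type) [Field F] [Finite F] (K : Type) [Field K] [Algebra F K] [Algebra.IsAlgebraic F K] [IsAlgClosed K]
    (lam : Kˣ) (e : ℕ), lam ≠ lam⁻¹ → mp F lam⁻¹ = mp F lam → (mp F lam).natDegree = 2 * e →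
    Lcl F false lam e (-(Nat.card F : ℤ) ^ e)

/-- box LG : pairs of dual classes, symplectic -/
def BoxLG : Prop :=
  ∀ (F : Type) [Field F] [Finite F] (K : Type) [Field K] [Algebra F K] [Algebra.IsAlgebraic F K] [IsAlgClosed K]
    (lam : Kˣ) (e : ℕ), mp F lam⁻¹ ≠ mp F lam → (mp F lam).natDegree = e → Lcl F false lam e ((Nat.card F : ℤ) ^ e)

/-- box LO : from symplectic to orthogonal, `B' u v = B ((g - g⁻¹) u) v` -/
def BoxLO : Prop :=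
  ∀ (F : Type) [Field F] [Finite F] (K : Type) [Field K] [Algebra F K] [Algebra.IsAlgebraic F K] [IsAlgClosed K]
    (lam : Kˣ) (e : ℕ) (t : ℤ), lam ≠ lam⁻¹ → Lcl F false lam e t → Lcl F true lam e t

/-- **the places**: the orbit of `lam i` under `x ↦ x ^ q`, `x ↦ x⁻¹` has `2 k (d i)` elements -/
structure Plc (F K : Type) [Field F] [Finite F] [Field K] [Algebra F K] (M : Pm) where
  lam : M.I → Kˣ
  q₀ : M.q₀ = Nat.card F ^ M.k
  ne : ∀ i, lam i ≠ (lam i)⁻¹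
  un : ∀ i, M.ng = true ∧ Odd (M.d i) → mp F (lam i)⁻¹ = mp F (lam i) ∧ (mp F (lam i)).natDegree = 2 * (M.k * M.d i)
  li : ∀ i, ¬ (M.ng = true ∧ Odd (M.d i)) → mp F (lam i)⁻¹ ≠ mp F (lam i) ∧ (mp F (lam i)).natDegree = M.k * M.d i
  sep : ∀ i j, mp F (lam i) = mp F (lam j) ∨ mp F (lam i) = mp F (lam j)⁻¹ → i = j
  pr : ∀ i, ∃ l, Ord (Nat.card F) M.k M.ng l ∧ l ∣ orderOf (lam i)

namespace Plc

variable {F K : Type} [Field F] [Finite F] [Field K] [Algebra F K] {M : Pm} (E : Plc F K M)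
  {V : Type} [AddCommGroup V] [Module F V] [FiniteDimensional F V]

/-- the type -/
noncomputable def ty (x : End F V) : Ty M.I := Finsupp.equivFunOnFinite.symm fun i => col x (mp F (E.lam i))

/-- all eigenvalues belong to the places -/
def Pure (x : End F V) : Prop := ∀ φ : F[X], col x φ ≠ 0 → ∃ i, φ = mp F (E.lam i) ∨ φ = mp F (E.lam i)⁻¹

/-- the local classification holds at all places -/
def Cl : Prop := ∀ (o : Bool) (i : M.I), Lcl F o (E.lam i) (M.k * M.d i) (M.Q ^ M.d i)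

/-- **the factorisation of the kernel** `θ` for orthogonal spaces of the parity `od`; `w` = the signs -/
structure KF (θ : Wk F) (od : Bool) (w : M.I → ℤˣ) : Prop where
  w1 : od = false → w = 1
  fac : ∀ {V V₁ V₂ W W₁ W₂ : Type} [AddCommGroup V] [Module F V] [AddCommGroup V₁] [Module F V₁] [AddCommGroup V₂]
    [Module F V₂] [AddCommGroup W] [Module F W] [AddCommGroup W₁] [Module F W₁] [AddCommGroup W₂] [Module F W₂]
    [FiniteDimensional F V] [FiniteDimensional F V₁] [FiniteDimensional F V₂] [FiniteDimensional F W]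
    [FiniteDimensional F W₁] [FiniteDimensional F W₂]
    (Φ : Fm false F V) (g : Φ.G) (Φ₁ : Fm false F V₁) (g₁ : Φ₁.G) (Φ₂ : Fm false F V₂) (g₂ : Φ₂.G)
    (Ψ : Fm true F W) (h : Ψ.G) (Ψ₁ : Fm true F W₁) (h₁ : Ψ₁.G) (Ψ₂ : Fm true F W₂) (h₂ : Ψ₂.G),
    (Odd (finrank F W) ↔ od = true) → Spl Φ g Φ₁ g₁ Φ₂ g₂ → Spl Ψ h Ψ₁ h₁ Ψ₂ h₂ → E.Pure (g₁.1 : End F V₁) →
    E.Pure (h₁.1 : End F W₁) → E.ty (g₂.1 : End F V₂) = 0 → E.ty (h₂.1 : End F W₂) = 0 →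
    θ Φ Ψ g h = (M.Q : ℂ) ^ tip M.d (E.ty (g₁.1 : End F V₁)) (E.ty (h₁.1 : End F W₁)) *
      ((∏ i, w i ^ (E.ty (g₁.1 : End F V₁) i).size : ℤˣ) : ℤ) *
      (if M.ng then (G4.sgn Ψ₂ h₂ : ℂ) ^ tdeg M.d (E.ty (g₁.1 : End F V₁)) else 1) * θ Φ₂ Ψ₂ g₂ h₂
  cj : ∀ {V W : Type} [AddCommGroup V] [Module F V] [AddCommGroup W] [Module F W] [FiniteDimensional F V]
    [FiniteDimensional F W] (Φ : Fm false F V) (Ψ : Fm true F W), (Odd (finrank F W) ↔ od = true) →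
    ∀ (g x : Φ.G) (h y : Ψ.G), θ Φ Ψ (x * g * x⁻¹) (y * h * y⁻¹) = θ Φ Ψ g h

/-- the Witt type of a pure orthogonal space: `W₁ ⊥ W₂` and `W₂` are Witt equivalent iff `ε ^ tdeg = 1` -/
def WT : Prop :=
  ∀ {W W₁ W₂ : Type} [AddCommGroup W] [Module F W] [AddCommGroup W₁] [Module F W₁] [AddCommGroup W₂] [Module F W₂]
    [FiniteDimensional F W] [FiniteDimensional F W₁] [FiniteDimensional F W₂]
    (Ψ : Fm true F W) (h : Ψ.G) (Ψ₁ : Fm true F W₁) (h₁ : Ψ₁.G) (Ψ₂ : Fm true F W₂) (h₂ : Ψ₂.G),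
    Spl Ψ h Ψ₁ h₁ Ψ₂ h₂ → E.Pure (h₁.1 : End F W₁) →
    (WE Ψ Ψ₂ ↔ ep M.ng (tdeg M.d (E.ty (h₁.1 : End F W₁))) = 1)

end Plc

/-- box WT -/
def BoxWT : Prop :=
  ∀ (F : Type) [Field F] [Finite F] (K : Type) [Field K] [Algebra F K] [Algebra.IsAlgebraic F K] [IsAlgClosed K]
    (M : Pm) (E : Plc F K M), E.Cl → E.WT

/-- box KF for a kernel -/
def KFOK (F : Type) [Field F] [Finite F] (θ : Wk F) (od : Bool) : Prop :=
  ∀ (K : Type) [Field K] [Algebra F K] [Algebra.IsAlgebraic F K] [IsAlgClosed K] (M : Pm) (E : Plc F K M), E.Cl →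
    ∃ w, E.KF θ od w

/-- **type and rest, geometrically** -/
structure Geo {F K : Type} [Field F] [Finite F] [Field K] [Algebra F K] {M : Pm} (E : Plc F K M) {N : Kn F} {θ : Wk F}
    (Q : Pl N.gt (N.Θ θ) M) : Prop where
  sg : ∀ P : Prop, P ∨ N.od = false → Q.sg P = 1
  tyS : ∀ (y : Bool × ℕ) (g : (N.Φ.hyp y.2).G), Q.typ ⟨.inl y, g⟩ = E.ty g.1.toLinearMap
  tyO : ∀ (y : Bool × ℕ) (g : ((N.Ψ y.1).hyp y.2).G), Q.typ ⟨.inr y, g⟩ = E.ty g.1.toLinearMap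
  spS : ∀ (y : Bool × ℕ) (g : (N.Φ.hyp y.2).G), ∃ (z : Bool × ℕ) (g₂ : (N.Φ.hyp z.2).G) (n : ℕ) (Φ₁ : Fm false F (Fin n → F))
    (g₁ : Φ₁.G), Q.rest ⟨.inl y, g⟩ = ⟨.inl z, g₂⟩ ∧ Spl (N.Φ.hyp y.2) g Φ₁ g₁ (N.Φ.hyp z.2) g₂ ∧
    E.Pure (g₁.1 : End F (Fin n → F))
  spO : ∀ (y : Bool × ℕ) (g : ((N.Ψ y.1).hyp y.2).G), ∃ (z : Bool × ℕ) (g₂ : ((N.Ψ z.1).hyp z.2).G) (n : ℕ)
    (Φ₁ : Fm true F (Fin n → F)) (g₁ : Φ₁.G), Q.rest ⟨.inr y, g⟩ = ⟨.inr z, g₂⟩ ∧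
    Spl ((N.Ψ y.1).hyp y.2) g Φ₁ g₁ ((N.Ψ z.1).hyp z.2) g₂ ∧ E.Pure (g₁.1 : End F (Fin n → F))

/-- box GL (glue) -/
def BoxGL : Prop :=
  ∀ (F : Type) [Field F] [Finite F] (K : Type) [Field K] [Algebra F K] [Algebra.IsAlgebraic F K] [IsAlgClosed K]
    (M : Pm) (E : Plc F K M) (N : Kn F) (θ : Wk F) (w : M.I → ℤˣ), E.Cl → E.WT → E.KF θ N.od w →
    ∃ Q : Pl N.gt (N.Θ θ) M, Geo E Q

/-- box AR (arithmetic of the places) -/
def BoxAR : Prop :=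
  ∀ (F : Type) [Field F] [Finite F] (k : ℕ) (ng : Bool) (p r a B : ℕ), 0 < k → Ord (Nat.card F) k ng p →
    Ord (Nat.card F) k ng r → p ≠ r → 0 < a → a < p → a ≤ B →
    ∃ (M : Pm) (E : Plc F (AlgebraicClosure F) M) (A : Ar M.k M.I), M.k = k ∧ M.ng = ng ∧ A.p = p ∧ A.a = a ∧
      ∀ (N : Kn F) (θ : Wk F) (Q : Pl N.gt (N.Θ θ) M), Geo E Q → PlF Q A r B fun P => P ∨ N.od = false

theorem Plc.cl (hU : BoxLU) (hG : BoxLG) (hO : BoxLO) {F K : Type} [Field F] [Finite F] [Field K] [Algebra F K]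
    [Algebra.IsAlgebraic F K] [IsAlgClosed K] {M : Pm} (E : Plc F K M) : E.Cl := by
  have h : ∀ i, Lcl F false (E.lam i) (M.k * M.d i) (M.Q ^ M.d i) := fun i => by
    by_cases h : M.ng = true ∧ Odd (M.d i)
    · have h1 := hU F K _ _ (E.ne i) (E.un i h).1 (E.un i h).2
      rwa [Pm.Q, if_pos h.1, h.2.neg_pow, E.q₀, Nat.cast_pow, ← pow_mul]
    · have h1 := hG F K _ _ (E.li i h).1 (E.li i h).2
      have h2 : M.Q ^ M.d i = (Nat.card F : ℤ) ^ (M.k * M.d i) := by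
        rw [Pm.Q, E.q₀, Nat.cast_pow, pow_mul]
        split_ifs with h3
        · exact (Nat.not_odd_iff_even.1 fun h4 => h ⟨h3, h4⟩).neg_pow _
        · rfl
      rwa [h2]
  intro o i
  cases o
  · exact h i
  · exact hO F K _ _ _ (E.ne i) (h i)

/-- the places from the boxes -/
theorem plOK_of (hU : BoxLU) (hG : BoxLG) (hO : BoxLO) (hW : BoxWT) (hL : BoxGL) (hA : BoxAR) {F : Type} [Field F]
    [Finite F] (N : Kn F) (θ : Wk F) (hK : KFOK F θ N.od) : N.PlOK θ := by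
  intro k ng p r a B h1 h2 h3 h4 h5 h6 h7
  obtain ⟨M, E, A, e1, e2, e3, e4, h⟩ := hA F k ng p r a B h1 h2 h3 h4 h5 h6 h7
  have hc := E.cl hU hG hO
  obtain ⟨w, hw⟩ := hK _ M E hc
  obtain ⟨Q, hQ⟩ := hL F _ M E N θ w hc (hW F _ M E hc) hw
  exact ⟨M, Q, A, e1, e2, e3, e4, h N θ Q hQ⟩

end Cfsg.Agent.PQ.Th
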